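import Cfsg.Agent.Cond.Fi22Y

set_option autoImplicit false

instance Cfsg.Agent.Inst.Fi22Y.{u} : Cfsg.Agent.Gate.Fi22Y.{u} := Cfsg.Agent.Cond.Fi22Y
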