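import Cfsg.Agent.Gate.S0400
import Cfsg.Agent.S0400

set_option autoImplicit false

instance Cfsg.Agent.Inst.S0400 : Cfsg.Agent.Gate.S0400 := ⟨@Cfsg.Agent.S0400.result⟩
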