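import Cfsg.Agent.Gate.S1711
import Cfsg.Agent.S1711

set_option autoImplicit false

instance Cfsg.Agent.Inst.S1711 : Cfsg.Agent.Gate.S1711 := ⟨@Cfsg.Agent.S1711.result⟩
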