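import Cfsg.Agent.Gate.ThE8
import Cfsg.Agent.ThT.E8Main

set_option autoImplicit false

instance Cfsg.Agent.Inst.ThE8 : Cfsg.Agent.Gate.ThE8 where
  out := by
    obtain ⟨f, hf⟩ := Cfsg.Lib.ThT.exists_hom_E8
    refine ⟨f, by_contra fun h => ?_⟩
    have h1 : f.range = ⊥ := (Subgroup.eq_bot_iff_forall _).2 (by
      rintro _ ⟨x, rfl⟩
      exact by_contra fun hx => h ⟨x, hx⟩)
    rw [h1, Subgroup.card_bot] at hf
    exact absurd (Nat.le_of_dvd one_pos hf) (by norm_num)
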